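-- Piece S5988/B1E: under `CondE` every isometry of order dividing `r` fixes an elliptic `m`-space.
import Mathlib
import Cfsg.Agent.Lib.Helper45.EPStmt
import Cfsg.Agent.Lib.Helper44.TPStmt

set_option autoImplicit false

universe u

open scoped Matrix

namespace Cfsg.Agent.Lib.Helper84.EPB1E

open Cfsg.Agent.Lib.Helper37.HypStmt (cc IPos)
open Cfsg.Agent.Lib.Helper94.OPStmt (P NP FxP NDegP StabP mem_FxP)
open Cfsg.Agent.Lib.Helper45.EPStmt
open Cfsg.Agent.Lib.Helper44

theorem cc_cases (i : ℕ) : (Even i ∧ cc i = i) ∨ (Odd i ∧ cc i = 2 * i) := by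
  unfold cc
  by_cases h : Even i
  · left
    exact ⟨h, if_pos h⟩
  · right
    exact ⟨Nat.not_even_iff_odd.mp h, if_neg h⟩

theorem cc_even (i : ℕ) : Even (cc i) := by
  rcases cc_cases i with ⟨h, e⟩ | ⟨_, e⟩
  · rw [e]; exact h
  · rw [e]; exact even_two_mul i

theorem cc_pos {i : ℕ} (hi : 0 < i) : 0 < cc i := by
  rcases cc_cases i with ⟨_, e⟩ | ⟨_, e⟩
  · rw [e]; exact hi
  · rw [e]; omega

theorem main (hIPos : IPos.{u}) (hTop : TPStmt.Top.{u}) (hFixND : TPStmt.FixND.{u})
    (hFxType : TPStmt.FxType.{u}) (hTE : TPStmt.TypeEven.{u}) (hHO : TPStmt.HalfOdd.{u})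
    (hCancel : TPStmt.Cancel.{u}) (hOS : TPStmt.OrthSum.{u}) (hBlocks : BlocksA.{u})
    (hSub : SubTypeE.{u}) (hDim : DimObsA.{u}) : B1E.{u} := by
  intro F _ _ p _ _ d m hd hm2 hmeven hmd r _ hr2 hrp hcond y hy hyr
  have hi : 0 < orderOf ((Fintype.card F : ℕ) : ZMod r) := hIPos F p r hrp
  obtain ⟨i, hidef⟩ : ∃ i : ℕ, i = orderOf ((Fintype.card F : ℕ) : ZMod r) := ⟨_, rfl⟩
  rw [← hidef] at hi hcond
  obtain ⟨c, hcdef⟩ : ∃ c : ℕ, c = cc i := ⟨_, rfl⟩
  have hcpos : 0 < c := hcdef ▸ cc_pos hi
  have hceven : Even c := hcdef ▸ cc_even i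
  obtain ⟨f, hfdef⟩ : ∃ f : ℕ, f = Module.finrank F ↥(FxP (y : Matrix (P d) (P d) F)) :=
    ⟨_, rfl⟩
  have hVdim : Module.finrank F (P d → F) = 2 * d := by
    rw [Module.finrank_pi]
    simp
    omega
  have hfle : f ≤ 2 * d := by
    rw [hfdef, ← hVdim]
    exact Submodule.finrank_le _
  have hTopND : NDegP d F ⊤ := (hTop F d).1
  have hdvd : c ∣ 2 * d - f := by
    have h := hDim F p d r hr2 hrp y hy hyr ⊤ le_top hTopND
    rw [top_inf_eq, finrank_top, hVdim, ← hidef, ← hcdef, ← hfdef] at h
    exact h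
  obtain ⟨s, hs⟩ := hdvd
  have h2d : 2 * d = f + c * s := by omega
  have hYnd : NDegP d F (FxP (y : Matrix (P d) (P d) F)) := hFixND F p d r hrp y hy hyr
  -- blocks and their types
  have hblock : ∀ j : ℕ, j ≤ s → ∃ E : Submodule F (P d → F),
      StabP (y : Matrix (P d) (P d) F) E ∧ NDegP d F E ∧ Module.finrank F ↥E = c * j ∧
      (∀ u ∈ E, ∀ v ∈ FxP (y : Matrix (P d) (P d) F),
        QuadraticMap.polar (Cfsg.quadFormPlus d F) u v = 0) ∧
      (TPStmt.Plus d F E ↔ (Odd i ∨ Even j)) := by
    intro j hj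
    have hjc : c * j ≤ c * s := Nat.mul_le_mul_left c hj
    obtain ⟨E, hEst, hEnd, hEdim, hEF, hEorth⟩ := hBlocks F p d r hr2 hrp y hy hyr j (by
      rw [← hidef, ← hcdef, ← hfdef, mul_comm j c]
      omega)
    rw [← hidef, ← hcdef, mul_comm j c] at hEdim
    refine ⟨E, hEst, hEnd, hEdim, hEorth, ?_⟩
    rcases cc_cases i with ⟨hev, hci⟩ | ⟨hodd, hci⟩
    · have h := hTE F p d r hr2 hrp (by rw [← hidef]; exact hev) y hy hyr E hEst hEnd hEF
      rw [← hidef, hEdim, hcdef, hci, Nat.mul_div_cancel_left j hi] at h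
      rw [h]
      constructor
      · intro h'; exact Or.inr h'
      · rintro (h' | h')
        · exact absurd hev (Nat.not_even_iff_odd.mpr h')
        · exact h'
    · obtain ⟨U, hUE, -, hUts, hUdim⟩ :=
        hHO F p d r hr2 hrp (by rw [← hidef]; exact hodd) y hy hyr E hEst hEnd hEF
      constructor
      · intro _; exact Or.inl hodd
      · intro _; exact ⟨U, hUE, hUts, hUdim⟩
  -- gluing a block and a subspace of the fixed space
  have glue : ∀ (E WF : Submodule F (P d → F)) (a b : ℕ),
      StabP (y : Matrix (P d) (P d) F) E → NDegP d F E → Module.finrank F ↥E = a →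
      (∀ u ∈ E, ∀ v ∈ FxP (y : Matrix (P d) (P d) F),
        QuadraticMap.polar (Cfsg.quadFormPlus d F) u v = 0) →
      WF ≤ FxP (y : Matrix (P d) (P d) F) → Module.finrank F ↥WF = b → NDegP d F WF →
      a + b = m → ¬ (TPStmt.Plus d F E ∧ TPStmt.Plus d F WF) →
      (TPStmt.Plus d F E ∨ TPStmt.Plus d F WF) →
      ∃ W : Submodule F (P d → F), MemE d F m W ∧ StabP (y : Matrix (P d) (P d) F) W := by
    intro E WF a b hEst hEnd hEdim hEorth hWFY hWFdim hWFnd hab hnot hor
    have horth : ∀ u ∈ E, ∀ v ∈ WF, QuadraticMap.polar (Cfsg.quadFormPlus d F) u v = 0 :=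
      fun u hu v hv => hEorth u hu v (hWFY hv)
    have horth' : ∀ u ∈ WF, ∀ v ∈ E, QuadraticMap.polar (Cfsg.quadFormPlus d F) u v = 0 := by
      intro u hu v hv
      rw [QuadraticMap.polar_comm]
      exact horth v hv u hu
    obtain ⟨hnd, -, hdim⟩ := hOS F d E WF hEnd hWFnd horth
    refine ⟨E ⊔ WF, ⟨?_, hnd, ?_⟩, ?_⟩
    · rw [hdim, hEdim, hWFdim, hab]
    · intro hplus
      have hplus1 : TPStmt.Plus d F (E ⊔ WF) := hplus
      rcases hor with hE | hW
      · exact hnot ⟨hE, hCancel F d E WF hEnd hWFnd horth hplus1 hE⟩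
      · have hplus2 : TPStmt.Plus d F (WF ⊔ E) := by rw [sup_comm]; exact hplus1
        exact hnot ⟨hCancel F d WF E hWFnd hEnd horth' hplus2 hW, hW⟩
    · unfold StabP
      rw [Submodule.map_sup]
      apply sup_le_sup hEst
      rintro _ ⟨w, hw, rfl⟩
      rw [Matrix.toLin'_apply, (mem_FxP _ w).mp (hWFY hw)]
      exact hw
  -- mode A: a proper nonzero part of the fixed space
  have modeA : ∀ j e : ℕ, e + c * j = m → j ≤ s → 0 < e → e < f →
      ∃ W : Submodule F (P d → F), MemE d F m W ∧ StabP (y : Matrix (P d) (P d) F) W := by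
    intro j e hej hjs he0 hef
    obtain ⟨E, hEst, hEnd, hEdim, hEorth, hEtype⟩ := hblock j hjs
    have heeven : Even e := by
      have h1 : Even (c * j) := Even.mul_right hceven j
      have h2 : Even (e + c * j) := hej ▸ hmeven
      exact (Nat.even_add.mp h2).mpr h1
    have he2 : 2 ≤ e := by
      obtain ⟨t, ht⟩ := heeven
      omega
    obtain ⟨⟨Wp, hWpY, hWpdim, hWpnd, hWpplus⟩, hell⟩ :=
      hSub F d e (FxP (y : Matrix (P d) (P d) F)) hYnd heeven (by rw [← hfdef]; exact hef)
    obtain ⟨We, hWeY, hWedim, hWend, hWenp⟩ := hell he2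
    by_cases hEp : TPStmt.Plus d F E
    · exact glue E We (c * j) e hEst hEnd hEdim hEorth hWeY hWedim hWend (by omega)
        (fun h => hWenp h.2) (Or.inl hEp)
    · exact glue E Wp (c * j) e hEst hEnd hEdim hEorth hWpY hWpdim hWpnd (by omega)
        (fun h => hEp h.1) (Or.inr hWpplus)
  -- mode B: the block alone
  have modeB : ∀ j : ℕ, Even i → Odd j → c * j = m → j ≤ s →
      ∃ W : Submodule F (P d → F), MemE d F m W ∧ StabP (y : Matrix (P d) (P d) F) W := by
    intro j hev hjodd hjm hjs
    obtain ⟨E, hEst, hEnd, hEdim, hEorth, hEtype⟩ := hblock j hjs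
    refine ⟨E, ⟨by rw [hEdim, hjm], hEnd, ?_⟩, hEst⟩
    intro hplus
    rcases hEtype.mp hplus with h | h
    · exact (Nat.not_even_iff_odd.mpr h) hev
    · exact (Nat.not_even_iff_odd.mpr hjodd) h
  -- the type of the fixed space
  have hFxT : TPStmt.Plus d F (FxP (y : Matrix (P d) (P d) F)) ↔
      (Odd i ∨ Even ((2 * d - f) / i)) := by
    have h : TPStmt.Plus d F (FxP (y : Matrix (P d) (P d) F)) ↔
        (Odd (orderOf ((Fintype.card F : ℕ) : ZMod r)) ∨
          Even ((2 * d - Module.finrank F ↥(FxP (y : Matrix (P d) (P d) F))) /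
            orderOf ((Fintype.card F : ℕ) : ZMod r))) := hFxType F p d r hr2 hrp y hy hyr
    rw [← hidef, ← hfdef] at h
    exact h
  -- mode C: the whole fixed space
  have modeC : ∀ j : ℕ, Even i → f + c * j = m → j ≤ s → Odd (s + j) →
      ∃ W : Submodule F (P d → F), MemE d F m W ∧ StabP (y : Matrix (P d) (P d) F) W := by
    intro j hev hfj hjs hsj
    obtain ⟨E, hEst, hEnd, hEdim, hEorth, hEtype⟩ := hblock j hjs
    have hci : c = i := by
      rcases cc_cases i with ⟨_, h⟩ | ⟨h, _⟩
      · rw [hcdef, h]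
      · exact absurd hev (Nat.not_even_iff_odd.mpr h)
    have hFx' : TPStmt.Plus d F (FxP (y : Matrix (P d) (P d) F)) ↔ Even s := by
      rw [hFxT, ← hci]
      have h1 : (2 * d - f) / c = s := by
        rw [hs]
        exact Nat.mul_div_cancel_left s hcpos
      rw [h1]
      constructor
      · rintro (h | h)
        · exact absurd hev (Nat.not_even_iff_odd.mpr (hci ▸ h))
        · exact h
      · intro h; exact Or.inr h
    have hE' : TPStmt.Plus d F E ↔ Even j := by
      rw [hEtype]
      constructor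
      · rintro (h | h)
        · exact absurd hev (Nat.not_even_iff_odd.mpr h)
        · exact h
      · intro h; exact Or.inr h
    refine glue E (FxP (y : Matrix (P d) (P d) F)) (c * j) f hEst hEnd hEdim hEorth le_rfl
      hfdef.symm hYnd (by omega) ?_ ?_
    · rintro ⟨h1, h2⟩
      have : Even (s + j) := Even.add (hFx'.mp h2) (hE'.mp h1)
      exact (Nat.not_even_iff_odd.mpr hsj) this
    · by_cases hj : Even j
      · exact Or.inl (hE'.mpr hj)
      · right
        apply hFx'.mpr
        by_contra hsodd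
        have h1 : Odd j := Nat.not_even_iff_odd.mp hj
        have h2 : Odd s := Nat.not_even_iff_odd.mp hsodd
        exact (Nat.not_odd_iff_even.mpr (Odd.add_odd h2 h1)) hsj
  -- arithmetic
  obtain ⟨μ, hμ⟩ : ∃ μ : ℕ, μ = m / c := ⟨_, rfl⟩
  obtain ⟨ℓ, hℓ⟩ : ∃ ℓ : ℕ, ℓ = m % c := ⟨_, rfl⟩
  have hdm : c * μ + ℓ = m := by rw [hμ, hℓ]; exact Nat.div_add_mod m c
  have hℓlt : ℓ < c := by rw [hℓ]; exact Nat.mod_lt m hcpos
  have hmod : (2 * d) % c = f % c := by
    rw [h2d, Nat.add_mul_mod_self_left]
  have hfmod : f % c ≤ f := Nat.mod_le f c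
  by_cases hI : c * s < m
  · exact modeA s (m - c * s) (by omega) le_rfl (by omega) (by omega)
  · have hμs : μ ≤ s := by
      have h1 : c * μ ≤ c * s := by omega
      exact Nat.le_of_mul_le_mul_left h1 hcpos
    have hcci : Even i → c = i := by
      intro hev
      rcases cc_cases i with ⟨_, h⟩ | ⟨h, _⟩
      · rw [hcdef, h]
      · exact absurd hev (Nat.not_even_iff_odd.mpr h)
    unfold CondE at hcond
    rw [← hcdef, ← hℓ, hmod] at hcond
    rcases hcond with ⟨hodd, hcm, hl0, hlk⟩ |
      ⟨hev, ⟨hk0, hor⟩ | ⟨him, (⟨hl0, hlk⟩ | ⟨hl0, hlk, hoddq⟩ | ⟨hl0, hk0, hoddq⟩)⟩⟩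
    · exact modeA μ ℓ (by omega) hμs hl0 (by omega)
    · -- (2): c ∣ 2 d
      have hci := hcci hev
      rcases hor with hodd2 | ⟨hl0, hoddq⟩
      · obtain ⟨f', hf'⟩ : c ∣ f := Nat.dvd_of_mod_eq_zero hk0
        have h2d' : 2 * d = c * (f' + s) := by rw [h2d, hf', Nat.mul_add]
        rw [← hci, h2d', Nat.mul_div_cancel_left _ hcpos] at hodd2
        have hf0 : f ≠ 0 := by
          intro hf
          have hf'0 : f' = 0 := by
            rcases Nat.eq_zero_or_pos f' with h | h
            · exact h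
            · have : 0 < c * f' := Nat.mul_pos hcpos h
              omega
          have hbot : FxP (y : Matrix (P d) (P d) F) = ⊥ := by
            apply Submodule.finrank_eq_zero.mp
            rw [← hfdef]
            exact hf
          have hplus : TPStmt.Plus d F (FxP (y : Matrix (P d) (P d) F)) := by
            refine ⟨⊥, bot_le, ?_, ?_⟩
            · intro w hw
              rw [(Submodule.mem_bot F).mp hw]
              unfold Cfsg.quadFormPlus
              simp
            · rw [finrank_bot, ← hfdef, hf]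
          rcases hFxT.mp hplus with h | h
          · exact (Nat.not_even_iff_odd.mpr h) hev
          · rw [← hci, hs, Nat.mul_div_cancel_left s hcpos] at h
            rw [hf'0, zero_add] at hodd2
            exact (Nat.not_even_iff_odd.mpr hodd2) h
        have hf'pos : 0 < f' := by
          rcases Nat.eq_zero_or_pos f' with h | h
          · rw [h, Nat.mul_zero] at hf'
            exact absurd hf' hf0
          · exact h
        have hcf : c ≤ f := by
          rw [hf']
          exact Nat.le_mul_of_pos_right c hf'pos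
        by_cases hl : 0 < ℓ
        · exact modeA μ ℓ (by omega) hμs hl (by omega)
        · have hl0 : ℓ = 0 := by omega
          rcases Nat.even_or_odd μ with hμe | hμo
          · have hμ2 : 2 ≤ μ := by
              obtain ⟨t, ht⟩ := hμe
              rcases Nat.eq_zero_or_pos t with h | h
              · rw [h] at ht
                rw [ht, Nat.mul_zero] at hdm
                omega
              · omega
            have hsub : c * (μ - 1) = c * μ - c := Nat.mul_sub_one c μ
            have hcμ : c ≤ c * μ := Nat.le_mul_of_pos_right c (by omega)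
            by_cases hcf' : c < f
            · exact modeA (μ - 1) c (by omega) (by omega) hcpos hcf'
            · have hfc : f = c := by omega
              have hf'1 : f' = 1 := by
                have h1 : c * f' = c * 1 := by rw [← hf', hfc, Nat.mul_one]
                exact Nat.eq_of_mul_eq_mul_left hcpos h1
              rw [hf'1] at hodd2
              apply modeC (μ - 1) hev (by omega) (by omega)
              obtain ⟨t, ht⟩ := hμe
              obtain ⟨w, hw⟩ := hodd2
              exact ⟨w + t - 1, by omega⟩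
          · exact modeB μ hev hμo (by omega) hμs
      · rw [← hci, ← hμ] at hoddq
        exact modeB μ hev hoddq (by omega) hμs
    · exact modeA μ ℓ (by omega) hμs hl0 (by omega)
    · -- (4)
      have hci := hcci hev
      by_cases hlf : ℓ < f
      · exact modeA μ ℓ (by omega) hμs hl0 hlf
      · have hfl : f = ℓ := by omega
        have hfk : f % c = f := Nat.mod_eq_of_lt (by omega)
        have hnum : 2 * d + m - 2 * (f % c) = c * (s + μ) := by
          rw [hfk, Nat.mul_add]
          omega
        rw [← hci, hnum, Nat.mul_div_cancel_left _ hcpos] at hoddq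
        exact modeC μ hev (by omega) hμs hoddq
    · -- (5)
      have hci := hcci hev
      rw [← hci, ← hμ] at hoddq
      exact modeB μ hev hoddq (by omega) hμs

end Cfsg.Agent.Lib.Helper84.EPB1E
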