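import Mathlib
import Cfsg.Agent.Lib.Helper37.HypStmt
import Cfsg.Agent.Lib.Helper94.EllStmt
import Cfsg.Agent.Lib.Helper93.HypB2
import Cfsg.Agent.Lib.Helper93.HypB1

set_option autoImplicit false

/-! S5993 piece B1E (assembly): under `CondE`, every element of order `r` of `Omega` fixes an
elliptic `m`-space.  Elliptic sibling of `Cfsg.Agent.Lib.Helper93.HypB1`. -/

namespace Cfsg.Agent.Lib.Helper84.EllB1E

universe u

open Cfsg.Agent.Lib.Helper37.HypStmt Cfsg.Agent.Lib.Helper94.EllStmt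
  Cfsg.Agent.Lib.Helper93.HypB2 Cfsg.Agent.Lib.Helper93.HypB1

theorem main (hIPos : IPos.{u}) (hTop : TopND.{u}) (hFxLt : FxLt.{u}) (hFixND : FixND.{u})
    (hDim : DimObs.{u}) (hBlocks : Blocks.{u}) (hTO : TypeOdd.{u}) (hTE : TypeEven.{u})
    (hES : EllSub.{u}) : B1E.{u} := by
  intro F _ _ p _ _ hodd d m hd3 hm2 hmev hmle r _ hr2 hrp hcond x hxO hxord
  have hi : 0 < orderOf ((Fintype.card F : ℕ) : ZMod r) := hIPos F p r hrp
  have hxiso : x ∈ Cfsg.isometryGroup F (Cfsg.quadFormOdd d F) := by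
    obtain ⟨y, -, rfl⟩ := hxO
    exact y.2
  have hxr : x ^ r = 1 := by rw [← hxord]; exact pow_orderOf_eq_one x
  have hrprime : r.Prime := Fact.out
  have hx1 : (x : Matrix (I d) (I d) F) ≠ 1 := by
    intro h
    have h1 : x = 1 := Units.ext h
    rw [h1, orderOf_one] at hxord
    exact hrprime.one_lt.ne hxord
  have hflt := hFxLt F d (x : Matrix (I d) (I d) F) hx1
  have hfnd := hFixND F p hodd d r hrp x hxiso hxr
  have hstabtop : Stab (x : Matrix (I d) (I d) F) ⊤ := le_top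
  have hdvd := hDim F p hodd d r hr2 hrp x hxiso hxr ⊤ hstabtop (hTop F hodd d)
  have htopdim : Module.finrank F ↥(⊤ : Submodule F (I d → F)) = 2 * d + 1 := by
    rw [finrank_top, Module.finrank_fintype_fun_eq_card, Fintype.card_sum, Fintype.card_sum,
      Fintype.card_unit, Fintype.card_fin]
    omega
  rw [htopdim, top_inf_eq] at hdvd
  obtain ⟨j, hj⟩ := hdvd
  have hn : Module.finrank F ↥(Fx (x : Matrix (I d) (I d) F)) +
      j * cc (orderOf ((Fintype.card F : ℕ) : ZMod r)) = 2 * d + 1 := by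
    rw [mul_comm]
    omega
  -- consequences of `CondE`
  have hl : m % cc (orderOf ((Fintype.card F : ℕ) : ZMod r)) = 0 ∨
      m % cc (orderOf ((Fintype.card F : ℕ) : ZMod r)) <
        (2 * d + 1) % cc (orderOf ((Fintype.card F : ℕ) : ZMod r)) := by
    rcases hcond with ⟨-, -, -, hlt⟩ | ⟨-, -, hlt, -⟩
    · exact Or.inr hlt
    · exact Or.inr hlt
  obtain ⟨ha1, ha2, ha3⟩ := arith1 d m _ _ j hn hmle hl
  obtain ⟨E, hEstab, hEnd, hEdim, hEbot, hEperp⟩ :=
    hBlocks F p hodd d r hr2 hrp x hxiso hxr _ ha3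
  by_cases hEq : min (m / cc (orderOf ((Fintype.card F : ℕ) : ZMod r))) j *
      cc (orderOf ((Fintype.card F : ℕ) : ZMod r)) = m
  · -- `W = E`
    refine ⟨E, ⟨hEdim.trans hEq, hEnd, ?_⟩, hEstab⟩
    have hm0 : m % cc (orderOf ((Fintype.card F : ℕ) : ZMod r)) = 0 := by
      conv_lhs => rw [← hEq]
      exact Nat.mul_mod_left _ _
    rcases hcond with ⟨-, -, hpos, -⟩ | ⟨hie, -, -, hev⟩
    · omega
    · intro hplus
      have hEven := (hTE F p hodd d r hr2 hrp hie x hxiso hxr E hEstab hEnd hEbot).mp hplus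
      rw [hEdim, hEq] at hEven
      rcases hev with h | h
      · omega
      · exact (Nat.not_even_iff_odd.mpr h) hEven
  · -- complete `E` inside the fixed space
    have hElt : min (m / cc (orderOf ((Fintype.card F : ℕ) : ZMod r))) j *
        cc (orderOf ((Fintype.card F : ℕ) : ZMod r)) < m := lt_of_le_of_ne ha1 hEq
    have hEeven : Even (Module.finrank F ↥E) := by
      rw [hEdim]
      exact (cc_even _).mul_left _
    obtain ⟨W₁, hW₁, hEll⟩ := hES F hodd d m hmev E (Fx (x : Matrix (I d) (I d) F)) hEnd hfnd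
      hEperp hEeven (by rw [hEdim]; exact hElt) (by rw [hEdim]; exact ha2 hElt)
    exact ⟨E ⊔ W₁, hEll, stab_sup hEstab (stab_of_le_Fx _ hW₁)⟩

end Cfsg.Agent.Lib.Helper84.EllB1E
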