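import Mathlib
import Cfsg.Agent.Lib.Helper83.S38Stmt
import Cfsg.Agent.Lib.Helper23.TypeP

/-! S1538 piece WORD: no conjugate of `w ∈ W₁' W₂' \ W₂'` lies in `M'` (orders). -/

set_option autoImplicit false

namespace Cfsg.Agent.Lib.Helper84.S38WORD

open Cfsg Cfsg.Agent.Lib.Helper83

universe u

theorem main : S38Stmt.WOrd.{u} := by
  intro G _ _ M W₁ U W₂ hctx W₁' U' W₂' hP w hw hwW₂ g hg
  obtain ⟨hne1, hne2, hdisj, hcomm, hcyc, hnorm⟩ := hP.selfNormalizing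
  let K : Subgroup G :=
    { carrier := {x | ∃ a ∈ W₁', ∃ b ∈ W₂', x = a * b}
      mul_mem' := by
        rintro x y ⟨a, ha, b, hb, rfl⟩ ⟨a', ha', b', hb', rfl⟩
        refine ⟨a * a', W₁'.mul_mem ha ha', b * b', W₂'.mul_mem hb hb', ?_⟩
        have h := hcomm a' ha' b hb
        calc a * b * (a' * b') = a * (b * a') * b' := by group
          _ = a * (a' * b) * b' := by rw [h]
          _ = a * a' * (b * b') := by group
      one_mem' := ⟨1, W₁'.one_mem, 1, W₂'.one_mem, by simp⟩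
      inv_mem' := by
        rintro x ⟨a, ha, b, hb, rfl⟩
        refine ⟨a⁻¹, W₁'.inv_mem ha, b⁻¹, W₂'.inv_mem hb, ?_⟩
        have h := hcomm a⁻¹ (W₁'.inv_mem ha) b⁻¹ (W₂'.inv_mem hb)
        rw [mul_inv_rev, h] }
  have hK : W₁' ⊔ W₂' ≤ K := by
    apply sup_le
    · intro a ha; exact ⟨a, ha, 1, W₂'.one_mem, by simp⟩
    · intro b hb; exact ⟨1, W₁'.one_mem, b, hb, by simp⟩
  obtain ⟨w₁, hw₁, w₂, hw₂, rfl⟩ := hK hw
  have hw₁ne : w₁ ≠ 1 := by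
    rintro rfl
    apply hwW₂
    simpa using hw₂
  have hord : orderOf (g * (w₁ * w₂) * g⁻¹) = orderOf (w₁ * w₂) := by
    have h := MulEquiv.orderOf_eq (MulAut.conj g) (w₁ * w₂)
    rwa [MulAut.conj_apply] at h
  have h1 : orderOf (w₁ * w₂) ∣ Nat.card ↥⁅M, M⁆ := by
    rw [← hord]; exact Subgroup.orderOf_dvd_natCard _ hg
  have hcm : Commute w₁ w₂ := hcomm w₁ hw₁ w₂ hw₂
  have h2 : w₁ ^ orderOf (w₁ * w₂) = 1 := by
    have h := pow_orderOf_eq_one (w₁ * w₂)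
    rw [hcm.mul_pow] at h
    have hmem : w₁ ^ orderOf (w₁ * w₂) ∈ W₁' ⊓ W₂' := by
      refine ⟨W₁'.pow_mem hw₁ _, ?_⟩
      have e : w₁ ^ orderOf (w₁ * w₂) = (w₂ ^ orderOf (w₁ * w₂))⁻¹ :=
        eq_inv_of_mul_eq_one_left h
      show w₁ ^ orderOf (w₁ * w₂) ∈ W₂'
      rw [e]; exact W₂'.inv_mem (W₂'.pow_mem hw₂ _)
    rw [hdisj] at hmem
    exact Subgroup.mem_bot.mp hmem
  have h3 : orderOf w₁ ∣ Nat.card ↥⁅M, M⁆ := (orderOf_dvd_of_pow_eq_one h2).trans h1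
  have h4 : orderOf w₁ ∣ Nat.card ↥W₁' := Subgroup.orderOf_dvd_natCard _ hw₁
  have hrel : W₁'.relIndex M = Nat.card ↥⁅M, M⁆ := by
    have hle : W₁' ≤ M := hP.W₁_compl.2.1
    have e1 := Subgroup.relIndex_mul_relIndex (⊥ : Subgroup G) W₁' M bot_le hle
    rw [Subgroup.relIndex_bot_left, Subgroup.relIndex_bot_left] at e1
    have e2 := Cfsg.Agent.Lib.Helper23.TypeP.card_of_isComplIn hP.W₁_compl
    have hpos : 0 < Nat.card ↥W₁' := Nat.card_pos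
    have e3 : Nat.card ↥W₁' * W₁'.relIndex M = Nat.card ↥W₁' * Nat.card ↥⁅M, M⁆ := by
      rw [e1, e2, mul_comm]
    exact Nat.eq_of_mul_eq_mul_left hpos e3
  have hcop : (Nat.card ↥W₁').Coprime (Nat.card ↥⁅M, M⁆) := hrel ▸ hP.W₁_hall
  have h5 : orderOf w₁ ∣ 1 := by
    have h := Nat.dvd_gcd h4 h3
    rwa [hcop.gcd_eq_one] at h
  exact hw₁ne (orderOf_eq_one_iff.mp (Nat.dvd_one.mp h5))

end Cfsg.Agent.Lib.Helper84.S38WORD
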